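import Cfsg.Agent.H197.Reg.Inj

/-!
# Irreducible Brauer characters in the defining characteristic: Borel subgroups `S ⟨τ⟩`

`ibr_le_tor`: the number of irreducible Brauer characters is at most the number of pairs `(H, c)`, `H` a subgroup
containing `S` and `τ`, `c ^ m = 1`, `c = 1` if `τ` lies in the group generated by the `p`-elements of `H`.
-/

set_option autoImplicit false

namespace Cfsg.Agent.H197.Reg

open Cfsg IsLocalRing Module
open Cfsg.Agent.H657 Cfsg.Agent.H883.BR

attribute [local instance] Above.isAlgClosed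

section gen

variable {K W W' : Type} [Field K] [AddCommGroup W] [Module K W] [AddCommGroup W'] [Module K W'] {T : Type} [Group T]

/-- the elements acting by the same scalar on `w` and `w'` -/
def Eqs (σ : T →* Module.End K W) (σ' : T →* Module.End K W') (w : W) (w' : W') : Subgroup T where
  carrier := {g | ∃ c : K, c ≠ 0 ∧ σ g w = c • w ∧ σ' g w' = c • w'}
  one_mem' := ⟨1, one_ne_zero, by rw [map_one, one_smul]; rfl, by rw [map_one, one_smul]; rfl⟩
  mul_mem' := by
    rintro g h ⟨a, a0, ha, ha'⟩ ⟨b, b0, hb, hb'⟩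
    exact ⟨a * b, mul_ne_zero a0 b0,
      by rw [map_mul, Module.End.mul_apply, hb, map_smul, ha, smul_smul, mul_comm],
      by rw [map_mul, Module.End.mul_apply, hb', map_smul, ha', smul_smul, mul_comm]⟩
  inv_mem' := by
    rintro g ⟨a, a0, ha, ha'⟩
    have key : ∀ {W : Type} [AddCommGroup W] [Module K W] (σ : T →* Module.End K W) (w : W), σ g w = a • w →
        σ g⁻¹ w = a⁻¹ • w := by
      intro W _ _ σ w ha
      have h1 : σ g⁻¹ (σ g w) = w := by
        rw [← Module.End.mul_apply, ← map_mul, inv_mul_cancel, map_one]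
        rfl
      rw [ha, map_smul] at h1
      rw [← h1, smul_smul]
      nth_rw 1 [h1]
      rw [inv_mul_cancel₀ a0, one_smul]
    exact ⟨a⁻¹, inv_ne_zero a0, key σ w ha, key σ' w' ha'⟩

theorem Eqs_iff {σ : T →* Module.End K W} {σ' : T →* Module.End K W'} {w : W} {w' : W'} (hw : w ≠ 0) (hw' : w' ≠ 0)
    {g : T} (hg : g ∈ Eqs σ σ' w w') (c : K) : σ g w = c • w ↔ σ' g w' = c • w' := by
  obtain ⟨a, -, ha, ha'⟩ := hg
  have key : ∀ {W : Type} [AddCommGroup W] [Module K W] {w : W}, w ≠ 0 → (a • w = c • w ↔ a = c) := by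
    intro W _ _ w hw
    exact ⟨fun h => smul_left_injective K hw h, fun h => by rw [h]⟩
  rw [ha, ha', key hw, key hw']

/-- the group generated by the `p`-elements -/
def Op (p : ℕ) (H : Subgroup T) : Subgroup T := Subgroup.closure {g | g ∈ H ∧ ∃ k, g ^ p ^ k = 1}

end gen

section main

variable {T : Type} [Group T] [Finite T] {p : ℕ} [Fact p.Prime] {V : ValuationSubring ℂ}
  [CharP (ResidueField V) p] {U' S : Subgroup T}

theorem ibr_le_tor (h : CRG.{0, 0, 0} p U') (hS : IsPGroup p S) (hUS : U' ≤ S) (hc : Subgroup.center T = ⊥)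
    {τ : T} {m : ℕ} [NeZero m] (hm : τ ^ m = 1) (hτ : ∀ s ∈ S, τ⁻¹ * s * τ ∈ S)
    (hgen : ∀ H : Subgroup T, S ≤ H → τ ∈ H → H ≤ Op p H ⊔ Subgroup.zpowers τ) :
    Nat.card (IBr V T) ≤ Nat.card {x : {H : Subgroup T // S ≤ H ∧ τ ∈ H} × {c : ResidueField V // c ^ m = 1} //
      τ ∈ Op p x.1.1 → x.2.1 = 1} := by
  choose w hw0 hwS hw using fun i : IBr V T => exists_line h hS hUS hc i
  have hst : ∀ i : IBr V T, S ≤ St i.rep (hw0 i) := fun i u hu => ⟨1, by rw [one_smul]; exact hwS i u hu⟩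
  have hfx : ∀ i : IBr V T, Op p (St i.rep (hw0 i)) ≤ Fx i.rep (w i) := by
    intro i
    unfold Op
    rw [Subgroup.closure_le]
    rintro g ⟨hg, k, hk⟩
    exact mem_Fx_of i.rep (hw0 i) hg hk
  have hτw : ∀ i : IBr V T, ∃ c : ResidueField V, i.rep τ (w i) = c • w i := by
    intro i
    refine (hw i (i.rep τ (w i))).1 fun u hu => ?_
    have h1 := hwS i _ (hτ u (hUS hu))
    have h2 : i.rep (τ * (τ⁻¹ * u * τ)) (w i) = i.rep τ (w i) := by
      rw [map_mul, Module.End.mul_apply, h1]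
    have e : τ * (τ⁻¹ * u * τ) = u * τ := by group
    rw [e, map_mul, Module.End.mul_apply] at h2
    exact h2
  choose c hcw using hτw
  have hpow : ∀ (i : IBr V T) (n : ℕ), i.rep (τ ^ n) (w i) = c i ^ n • w i := by
    intro i n
    induction n with
    | zero => rw [pow_zero, pow_zero, map_one, one_smul]; rfl
    | succ n ih => rw [pow_succ, map_mul, Module.End.mul_apply, hcw, map_smul, ih, smul_smul, pow_succ']
  have hcm : ∀ i, c i ^ m = 1 := by
    intro i
    have h1 := hpow i m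
    rw [hm, map_one] at h1
    have h2 : (c i ^ m - 1) • w i = 0 := by
      rw [sub_smul, ← h1, one_smul]
      exact sub_self _
    exact sub_eq_zero.1 ((smul_eq_zero.1 h2).resolve_right (hw0 i))
  have hc0 : ∀ i, c i ≠ 0 := by
    intro i h0
    have h1 := hcm i
    rw [h0, zero_pow (NeZero.ne m)] at h1
    exact zero_ne_one h1
  have hτst : ∀ i, τ ∈ St i.rep (hw0 i) := fun i => ⟨c i, hcw i⟩
  have hone : ∀ i, τ ∈ Op p (St i.rep (hw0 i)) → c i = 1 := by
    intro i hi
    have h1 : i.rep τ (w i) = w i := hfx i hi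
    rw [hcw] at h1
    have h2 : (c i - 1) • w i = 0 := by rw [sub_smul, h1, one_smul, sub_self]
    exact sub_eq_zero.1 ((smul_eq_zero.1 h2).resolve_right (hw0 i))
  have hfinc : Finite {c : ResidueField V // c ^ m = 1} := by
    have hne : (Polynomial.X ^ m - Polynomial.C 1 : Polynomial (ResidueField V)) ≠ 0 :=
      Polynomial.X_pow_sub_C_ne_zero (Nat.pos_of_ne_zero (NeZero.ne m)) 1
    have hs : {c : ResidueField V | c ^ m = 1} ⊆ {c | Polynomial.IsRoot (Polynomial.X ^ m - Polynomial.C 1) c} := by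
      intro c hc
      show Polynomial.eval c _ = 0
      rw [Polynomial.eval_sub, Polynomial.eval_pow, Polynomial.eval_X, Polynomial.eval_C, sub_eq_zero]
      exact hc
    exact ((Polynomial.finite_setOf_isRoot hne).subset hs).to_subtype
  have hfin : Finite {x : {H : Subgroup T // S ≤ H ∧ τ ∈ H} × {c : ResidueField V // c ^ m = 1} //
      τ ∈ Op p x.1.1 → x.2.1 = 1} := inferInstance
  refine Nat.card_le_card_of_injective (fun i : IBr V T =>
    (⟨(⟨St i.rep (hw0 i), hst i, hτst i⟩, ⟨c i, hcm i⟩), hone i⟩ :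
      {x : {H : Subgroup T // S ≤ H ∧ τ ∈ H} × {c : ResidueField V // c ^ m = 1} // τ ∈ Op p x.1.1 → x.2.1 = 1})) ?_
  intro i j hij
  have hij1 := congrArg (fun x => x.1.1.1) hij
  have hij2 := congrArg (fun x => x.1.2.1) hij
  have hij' : St i.rep (hw0 i) = St j.rep (hw0 j) := hij1
  have hcij : c i = c j := hij2
  clear hij hij1 hij2
  have hz : ∀ i : IBr V T, ∀ z ∈ Subgroup.center T, i.rep z = 1 := by
    intro i z hz
    rw [hc, Subgroup.mem_bot] at hz
    rw [hz, map_one]
  have hE : St i.rep (hw0 i) ≤ Eqs (i.rep : T →* Module.End _ _) (j.rep : T →* Module.End _ _) (w i) (w j) := by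
    refine (hgen _ (hst i) (hτst i)).trans (sup_le ?_ ?_)
    · intro g hg
      have h1 : i.rep g (w i) = w i := hfx i hg
      have hg' : g ∈ Op p (St j.rep (hw0 j)) := hij' ▸ hg
      have h2 : j.rep g (w j) = w j := hfx j hg'
      exact ⟨1, one_ne_zero, by rw [h1, one_smul], by rw [h2, one_smul]⟩
    · rw [Subgroup.zpowers_le]
      exact ⟨c i, hc0 i, hcw i, by rw [hcw, hcij]⟩
  obtain ⟨e, he⟩ := h.iso (ResidueField V) _ _ i.rep j.rep (irr_of i.rep_irr) (irr_of j.rep_irr) (hz i) (hz j)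
    (w i) (w j) (hw0 i) (hw0 j) (fun u hu => hwS i u (hUS hu)) (fun u hu => hwS j u (hUS hu)) (by
      intro b c _
      by_cases hb : b ∈ St i.rep (hw0 i)
      · exact Eqs_iff (hw0 i) (hw0 j) (hE hb) c
      · have hb' : b ∉ St j.rep (hw0 j) := hij' ▸ hb
        exact ⟨fun h => absurd ⟨c, h⟩ hb, fun h => absurd ⟨c, h⟩ hb'⟩) (by
      intro g
      exact ⟨fun hg => (hij' ▸ hg : g ∈ St j.rep (hw0 j)), fun hg => (hij' ▸ hg : g ∈ St i.rep (hw0 i))⟩)
  apply Subtype.ext
  funext g
  rw [← i.trace_rep g, ← j.trace_rep g]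
  have h1 : j.rep g = e.conj (i.rep g) := by
    apply LinearMap.ext
    intro v
    rw [LinearEquiv.conj_apply_apply, he, LinearEquiv.apply_symm_apply]
  rw [h1, LinearMap.trace_conj']

end main

end Cfsg.Agent.H197.Reg
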