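import Cfsg.Agent.H197.Reg.Tor
import Cfsg.Agent.H197.Reg.Count
import Cfsg.Agent.H887.BR.CRG
import Cfsg.Agent.H958.TS.TwCommon
import Cfsg.Agent.TwoESix.LongCard
import Cfsg.Agent.S1086
import Cfsg.Agent.S1102
import Cfsg.Agent.S1070
import Cfsg.Agent.S0311

/-!
# `²E₆(2)` has at most 24 classes of elements of odd order (helper197)
-/

set_option autoImplicit false
set_option linter.unusedSectionVars false

namespace Cfsg.Agent.H197.RegTE

open Cfsg Cfsg.Lie IsLocalRing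
open Cfsg.Agent.H657 Cfsg.Agent.H883.BR
open Cfsg.Agent.ChevalleyStructure Cfsg.Agent.ChevalleyStructure.TwE6Basic
open Cfsg.Agent.TwoESix.LeviA Cfsg.Agent.TwoESix.LongCard
open Cfsg.Agent.Nodes.RGDTwE6 (X T nn foldGrp)
open Cfsg.Agent.Nodes.RGDFoldSL
open Cfsg.Agent.Nodes.RGDTwNode.E6 (rest nodeOK)
open Cfsg.Agent.H958.TS.TwCommon (P P_up_inj coordP hf)
open Cfsg.Agent.ChevalleyStructure.SL2Hom (up lo)
open Cfsg.Agent.H197.Reg (Op ibr_le_tor card_le_ibr)
open Cfsg.Agent.Tits.Roots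
open scoped MatrixGroups

variable {K : Type} [Field K] [Fintype K] {φ : K →+* K}

/-- the unipotent radical of the Borel subgroup of `²E₆(2)` -/
def UE (K : Type) [Field K] : Subgroup ↥(twistedE6 K 2) :=
  (chevE6.posUnipotent K ⊓ twistedE6 K 2).subgroupOf (twistedE6 K 2)

theorem roots_le (k : Type*) [Field k] : Finite {c : k // c ^ 3 = 1} ∧ Nat.card {c : k // c ^ 3 = 1} ≤ 3 := by
  classical
  have h1 : ∀ c : {c : k // c ^ 3 = 1}, c.1 ∈ (Polynomial.nthRoots 3 (1 : k)).toFinset := by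
    intro c
    rw [Multiset.mem_toFinset, Polynomial.mem_nthRoots (by norm_num)]
    exact c.2
  have h2 : Function.Injective fun c : {c : k // c ^ 3 = 1} =>
      (⟨c.1, h1 c⟩ : {x // x ∈ (Polynomial.nthRoots 3 (1 : k)).toFinset}) := by
    intro c c' h
    exact Subtype.ext (congrArg (fun x => x.1) h)
  refine ⟨Finite.of_injective _ h2, (Nat.card_le_card_of_injective _ h2).trans ?_⟩
  rw [Nat.card_eq_fintype_card, Fintype.card_coe]
  exact (Multiset.toFinset_card_le _).trans (Polynomial.card_nthRoots 3 1)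

/-- the count of the pairs -/
theorem card_model : Nat.card {x : (Fin 4 → Bool) × Fin 3 // x.1 2 = true ∨ x.1 3 = true → x.2 = 0} = 24 := by
  rw [Nat.card_eq_fintype_card]
  decide +kernel

section

variable (F : Four K φ)
include F

theorem card_UE : Nat.card (UE K) = 2 ^ 36 := by
  rw [UE, Nat.card_congr (Subgroup.subgroupOfEquivOfLe inf_le_right).toEquiv]
  exact Cfsg.Agent.S1086.result (q := 2) (Nat.prime_two.isPrimePow) (by rw [F.card]; norm_num)

theorem card_TE : Nat.card (T K 2) = 3 := by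
  have h1 := Cfsg.Agent.S1102.result (K := K) (q := 2) (Nat.prime_two.isPrimePow) (by rw [F.card]; norm_num)
  rw [T, Nat.card_congr (Subgroup.subgroupOfEquivOfLe inf_le_right).toEquiv]
  have h2 : Nat.gcd 3 (2 + 1) = 3 := by decide
  rw [h2] at h1
  omega

theorem B_eq : (PB F).B = UE K ⊔ T K 2 := by
  have h1 : (PB F).B = (TwE6BN.T φ 2 F.sq F.sqq).toRootData.U ⊔ (TwE6BN.T φ 2 F.sq F.sqq).toRootData.H := rfl
  rw [h1]
  congr 1
  · show (chevE6.posUnipotent K).subgroupOf (twistedE6 K 2) = _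
    rw [UE, Subgroup.inf_subgroupOf_right]
  · show (chevE6.diagonalSubgroup K).subgroupOf (twistedE6 K 2) = _
    rw [T, Subgroup.inf_subgroupOf_right]

theorem S_eq : (PB F).S = Set.range (nn F.sq) := by
  have h1 : (PB F).S = Set.range (TwE6BN.T φ 2 F.sq F.sqq).toRootData.n := rfl
  rw [h1]
  congr 1
  funext i
  apply Subtype.ext
  exact (Cfsg.Agent.Nodes.RGDTwE6.nI_eq i).symm

theorem X_le (i : Fin 4) : X φ 2 (sr i) ≤ UE K := by
  intro g hg
  rw [X, Subgroup.mem_subgroupOf, Cfsg.Agent.Nodes.RGDTwE6.R_pos] at hg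
  rw [UE, Subgroup.mem_subgroupOf]
  exact ⟨TwE6BN.rs_posE_le i hg.1, g.2⟩

theorem up_mem (i : Fin 4) (a : Fx φ ((rest i).length + 1)) : P F.sq F.sqq i (up a) ∈ UE K := by
  refine X_le F i ?_
  have h1 := (coordP F.sq F.sqq).up i
  have : (P F.sq F.sqq i (up a)) ∈ (X φ 2 (sr i) : Set ↥(twistedE6 K 2)) := by
    rw [h1]
    exact ⟨a, rfl⟩
  exact this

theorem P_wS (i : Fin 4) : P F.sq F.sqq i (wS 1) = nn F.sq i :=
  Phi_wS (foldGrp F.sq F.sqq) (nodeOK i) (hf F.sq F.sqq i)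

theorem nn_sq (i : Fin 4) : nn F.sq i ^ 2 = 1 := by
  have := F.charP
  rw [← P_wS F, ← map_pow]
  have h1 : (wS 1 : SL(2, Fx φ ((rest i).length + 1))) ^ 2 = 1 := by
    apply Subtype.ext
    rw [sq, Matrix.SpecialLinearGroup.coe_mul, coe_wS one_ne_zero]
    have h2 : (-1 : Fx φ ((rest i).length + 1)) = 1 := by
      have : CharP (Fx φ ((rest i).length + 1)) 2 := inferInstance
      exact CharTwo.neg_eq 1
    ext a b
    fin_cases a <;> fin_cases b <;> simp [Matrix.mul_apply, Fin.sum_univ_two, h2]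
  rw [h1, map_one]

theorem isPGroup_UE : IsPGroup 2 (UE K) := IsPGroup.of_card (card_UE F)

theorem lo_eq' (i : Fin 4) (a : Fx φ ((rest i).length + 1)) :
    P F.sq F.sqq i (lo a) = nn F.sq i * P F.sq F.sqq i (up (-a)) * (nn F.sq i)⁻¹ := by
  rw [lo_eq, map_mul, map_mul, map_inv, P_wS F]

/-- the rank one group lies in the group generated by the 2-elements -/
theorem P_mem_Op {H : Subgroup ↥(twistedE6 K 2)} (hU : UE K ≤ H) {i : Fin 4} (hn : nn F.sq i ∈ H)
    (s : SL(2, Fx φ ((rest i).length + 1))) : P F.sq F.sqq i s ∈ Op 2 H := by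
  have h1 : ∀ a, P F.sq F.sqq i (up a) ∈ Op 2 H := by
    intro a
    obtain ⟨k, hk⟩ := (isPGroup_UE F) ⟨_, up_mem F i a⟩
    exact Subgroup.subset_closure ⟨hU (up_mem F i a), k, congrArg Subtype.val hk⟩
  have h2 : nn F.sq i ∈ Op 2 H := Subgroup.subset_closure ⟨hn, 1, by rw [pow_one]; exact nn_sq F i⟩
  have h3 := SL2Hom.mem_closure_SL2 s
  have h4 : Subgroup.closure (Set.range (up (F := Fx φ ((rest i).length + 1))) ∪ Set.range lo) ≤
      (Op 2 H).comap (P F.sq F.sqq i) := by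
    rw [Subgroup.closure_le]
    rintro _ (⟨a, rfl⟩ | ⟨a, rfl⟩)
    · exact h1 a
    · show P F.sq F.sqq i (lo a) ∈ Op 2 H
      rw [lo_eq' F]
      exact mul_mem (mul_mem h2 (h1 _)) (inv_mem h2)
  exact h4 h3

theorem hS_mem {i : Fin 4} {d : Fx φ ((rest i).length + 1)} (hd : d ≠ 0) : P F.sq F.sqq i (hS d) ∈ T K 2 :=
  Phi_hS (foldGrp F.sq F.sqq) (nodeOK i) (hf F.sq F.sqq i) hd

theorem two_le {i : Fin 4} (hi : 2 ≤ i) : (rest i).length = 1 := by
  revert hi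
  revert i
  decide

theorem hS_ne {i : Fin 4} {d : Fx φ ((rest i).length + 1)} (hd : d ≠ 0) (hd1 : d ≠ 1) :
    P F.sq F.sqq i (hS d) ≠ 1 := by
  intro h
  have := F.charP
  have h1 : (hS d : SL(2, Fx φ ((rest i).length + 1))) * up 1 = up (d ^ 2) * hS d := by
    apply Subtype.ext
    rw [Matrix.SpecialLinearGroup.coe_mul, Matrix.SpecialLinearGroup.coe_mul, coe_hS hd]
    ext a b
    fin_cases a <;> fin_cases b <;> simp [up, Matrix.mul_apply, Fin.sum_univ_two, sq, hd]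
  have h2 := congrArg (P F.sq F.sqq i) h1
  rw [map_mul, map_mul, h, one_mul, mul_one] at h2
  have h3 := P_up_inj F.sq F.sqq i h2
  have h4 : (d - 1) ^ 2 = 0 := by
    have : CharP (Fx φ ((rest i).length + 1)) 2 := inferInstance
    rw [sub_sq, one_pow, mul_one, ← h3]
    have : (2 : Fx φ ((rest i).length + 1)) = 0 := CharTwo.two_eq_zero
    rw [this]
    ring_nf
    exact this
  exact hd1 (sub_eq_zero.1 (pow_eq_zero_iff (two_ne_zero)|>.1 h4))

theorem exists_d : ∃ d : K, d ≠ 0 ∧ d ≠ 1 := by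
  classical
  by_contra h
  push Not at h
  have h1 : (Finset.univ : Finset K) ⊆ {0, 1} := by
    intro d _
    rw [Finset.mem_insert, Finset.mem_singleton]
    by_cases h0 : d = 0
    · exact Or.inl h0
    · exact Or.inr (h d h0)
  have h2 := Finset.card_le_card h1
  rw [Finset.card_univ, F.card] at h2
  have h3 := Finset.card_le_two (a := (0 : K)) (b := 1)
  omega

theorem zpowers_eq {τ : ↥(twistedE6 K 2)} (hτ : τ ∈ T K 2) (h1 : τ ≠ 1) : Subgroup.zpowers τ = T K 2 := by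
  have hle : Subgroup.zpowers τ ≤ T K 2 := by rwa [Subgroup.zpowers_le]
  refine Subgroup.eq_of_le_of_card_ge hle ?_
  have h2 : Nat.card (Subgroup.zpowers τ) ∣ 3 := by
    rw [← card_TE F]
    exact Subgroup.card_dvd_of_le hle
  rcases (Nat.dvd_prime Nat.prime_three).1 h2 with h3 | h3
  · exfalso
    rw [Nat.card_zpowers, orderOf_eq_one_iff] at h3
    exact h1 h3
  · rw [h3, card_TE F]

theorem T_le_Op {H : Subgroup ↥(twistedE6 K 2)} (hU : UE K ≤ H) {i : Fin 4} (hi : 2 ≤ i) (hn : nn F.sq i ∈ H) :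
    T K 2 ≤ Op 2 H := by
  obtain ⟨d, hd, hd1⟩ := exists_d F
  have hdF : d ∈ Fx φ ((rest i).length + 1) := by
    rw [two_le F hi, mem_Fx]
    exact F.inv d
  have h1 : (⟨d, hdF⟩ : Fx φ ((rest i).length + 1)) ≠ 0 := fun h => hd (congrArg Subtype.val h)
  have h2 : (⟨d, hdF⟩ : Fx φ ((rest i).length + 1)) ≠ 1 := fun h => hd1 (congrArg Subtype.val h)
  rw [← zpowers_eq F (hS_mem F h1) (hS_ne F h1 h2), Subgroup.zpowers_le]
  exact P_mem_Op F hU hn _

theorem parabolic_eq {H : Subgroup ↥(twistedE6 K 2)} (hU : UE K ≤ H) (hT : T K 2 ≤ H) :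
    H = UE K ⊔ T K 2 ⊔ Subgroup.closure {g | ∃ i, nn F.sq i ∈ H ∧ g = nn F.sq i} := by
  apply le_antisymm
  · have hB : (PB F).B ≤ H := by
      rw [B_eq]
      exact sup_le hU hT
    obtain ⟨J, hJ, hH⟩ := Cfsg.Agent.S0311.result (PB F) H hB
    have hJH : J ⊆ H := by
      rw [hH]
      exact fun j hj => (le_sup_right : _ ≤ (PB F).B ⊔ Subgroup.closure J) (Subgroup.subset_closure hj)
    have h1 : H = UE K ⊔ T K 2 ⊔ Subgroup.closure J := by
      rw [← B_eq F]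
      exact hH
    nth_rw 1 [h1]
    refine sup_le_sup_left (Subgroup.closure_mono ?_) _
    intro j hj
    have h2 := hJ hj
    rw [S_eq F] at h2
    obtain ⟨i, rfl⟩ := h2
    exact ⟨i, hJH hj, rfl⟩
  · refine sup_le (sup_le hU hT) ((Subgroup.closure_le _).2 ?_)
    rintro _ ⟨i, hi, rfl⟩
    exact hi

theorem gen_E {H : Subgroup ↥(twistedE6 K 2)} (hU : UE K ≤ H) {τ : ↥(twistedE6 K 2)} (hτ : τ ∈ T K 2) (h1 : τ ≠ 1)
    (hτH : τ ∈ H) : H ≤ Op 2 H ⊔ Subgroup.zpowers τ := by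
  have hT : T K 2 ≤ H := by
    rw [← zpowers_eq F hτ h1, Subgroup.zpowers_le]
    exact hτH
  nth_rw 1 [parabolic_eq F hU hT]
  refine sup_le (sup_le ?_ ?_) ?_
  · intro u hu
    obtain ⟨k, hk⟩ := (isPGroup_UE F) ⟨u, hu⟩
    exact (le_sup_left : Op 2 H ≤ _) (Subgroup.subset_closure ⟨hU hu, k, congrArg Subtype.val hk⟩)
  · rw [← zpowers_eq F hτ h1]
    exact le_sup_right
  · refine (Subgroup.closure_le _).2 ?_
    rintro _ ⟨i, hi, rfl⟩
    exact (le_sup_left : Op 2 H ≤ _) (Subgroup.subset_closure ⟨hi, 1, by rw [pow_one]; exact nn_sq F i⟩)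

theorem T_conj {τ : ↥(twistedE6 K 2)} (hτ : τ ∈ T K 2) {u : ↥(twistedE6 K 2)} (hu : u ∈ UE K) :
    τ * u * τ⁻¹ ∈ UE K := by
  have h1 := (TwE6BN.T φ 2 F.sq F.sqq).toRootData.conj_H_U τ (by
    rw [T, Subgroup.inf_subgroupOf_right] at hτ
    exact hτ) u (by
    rw [UE, Subgroup.inf_subgroupOf_right] at hu
    exact hu)
  rw [UE, Subgroup.inf_subgroupOf_right]
  exact h1

theorem mem_comap_conj {g x : ↥(twistedE6 K 2)} {H : Subgroup ↥(twistedE6 K 2)} :
    x ∈ H.comap (MulAut.conj g).toMonoidHom ↔ g * x * g⁻¹ ∈ H := Iff.rfl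

omit F in
theorem Op_comap {g x : ↥(twistedE6 K 2)} {H : Subgroup ↥(twistedE6 K 2)}
    (hx : x ∈ Op 2 (H.comap (MulAut.conj g).toMonoidHom)) : g * x * g⁻¹ ∈ Op 2 H := by
  have h3 := Subgroup.mem_map_of_mem (MulAut.conj g).toMonoidHom hx
  rw [Op, MonoidHom.map_closure] at h3
  refine Subgroup.closure_mono ?_ h3
  rintro _ ⟨y, ⟨hy, k, hk⟩, rfl⟩
  refine ⟨Subgroup.mem_comap.1 hy, k, ?_⟩
  rw [← map_pow, hk, map_one]

theorem gen_E' {g : ↥(twistedE6 K 2)} {H : Subgroup ↥(twistedE6 K 2)}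
    (hU : (UE K).map (MulAut.conj g).toMonoidHom ≤ H) {τ : ↥(twistedE6 K 2)} (hτ : τ ∈ T K 2) (h1 : τ ≠ 1)
    (hτH : g * τ * g⁻¹ ∈ H) : H ≤ Op 2 H ⊔ Subgroup.zpowers (g * τ * g⁻¹) := by
  intro x hx
  have h2 := gen_E F (Subgroup.map_le_iff_le_comap.1 hU) hτ h1 (Subgroup.mem_comap.2 hτH) (x := g⁻¹ * x * g) (by
    rw [Subgroup.mem_comap]
    have : g * (g⁻¹ * x * g) * g⁻¹ = x := by group
    show g * (g⁻¹ * x * g) * g⁻¹ ∈ H
    rwa [this])
  have h3 := Subgroup.mem_map_of_mem (MulAut.conj g).toMonoidHom h2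
  have h4 : (MulAut.conj g).toMonoidHom (g⁻¹ * x * g) = x := by
    show g * (g⁻¹ * x * g) * g⁻¹ = x
    group
  rw [h4, Subgroup.map_sup] at h3
  refine (sup_le_sup ?_ ?_ : _ ≤ Op 2 H ⊔ Subgroup.zpowers (g * τ * g⁻¹)) h3
  · rintro _ ⟨y, hy, rfl⟩
    exact Op_comap hy
  · rw [MonoidHom.map_zpowers]
    exact le_rfl

theorem card_pairs {C : Type} [Finite C] (hC : Nat.card C ≤ 3) {P1 : C → Prop} (hP : ∀ c c', P1 c → P1 c' → c = c')
    {τ : ↥(twistedE6 K 2)} (hτ : τ ∈ T K 2) (h1 : τ ≠ 1) :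
    Nat.card {x : {H : Subgroup ↥(twistedE6 K 2) // UE K ≤ H ∧ τ ∈ H} × C // τ ∈ Op 2 x.1.1 → P1 x.2} ≤ 24 := by
  classical
  obtain ⟨e, he⟩ : ∃ e : C → Fin 3, Function.Injective e ∧ ∀ c, P1 c → e c = 0 := by
    have := Fintype.ofFinite C
    obtain ⟨e0⟩ := Function.Embedding.nonempty_of_card_le (α := C) (β := Fin 3)
      (by rw [← Nat.card_eq_fintype_card, Fintype.card_fin]; exact hC)
    by_cases hc : ∃ c, P1 c
    · obtain ⟨c, hc⟩ := hc
      refine ⟨fun x => Equiv.swap (e0 c) 0 (e0 x), fun x y h => e0.injective ((Equiv.swap _ _).injective h), ?_⟩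
      intro c' hc'
      rw [hP c' c hc' hc]
      exact Equiv.swap_apply_left _ _
    · exact ⟨e0, e0.injective, fun c hc' => absurd ⟨c, hc'⟩ hc⟩
  have hT : ∀ H : Subgroup ↥(twistedE6 K 2), τ ∈ H → T K 2 ≤ H := by
    intro H hH
    rw [← zpowers_eq F hτ h1, Subgroup.zpowers_le]
    exact hH
  rw [← card_model]
  refine Nat.card_le_card_of_injective
    (fun x => ⟨(fun i => decide (nn F.sq i ∈ x.1.1.1), e x.1.2), ?_⟩) ?_
  · intro h
    refine he.2 _ (x.2 ?_)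
    rcases h with h | h
    · exact T_le_Op F x.1.1.2.1 (i := 2) le_rfl (of_decide_eq_true h) hτ
    · exact T_le_Op F x.1.1.2.1 (i := 3) (by decide) (of_decide_eq_true h) hτ
  · rintro ⟨⟨⟨H, hU, hH⟩, c⟩, hx⟩ ⟨⟨⟨H', hU', hH'⟩, c'⟩, hx'⟩ h
    have h2 := congrArg Subtype.val h
    have h3 : (fun i => decide (nn F.sq i ∈ H)) = fun i => decide (nn F.sq i ∈ H') := congrArg Prod.fst h2
    have h4 : e c = e c' := congrArg Prod.snd h2
    have h5 := he.1 h4
    have h6 : ∀ i, nn F.sq i ∈ H ↔ nn F.sq i ∈ H' := by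
      intro i
      have h7 := congrFun h3 i
      simpa using h7
    have h8 : H = H' := by
      rw [parabolic_eq F hU (hT _ hH), parabolic_eq F hU' (hT _ hH')]
      congr 2
      ext g
      constructor
      · rintro ⟨i, hn, rfl⟩
        exact ⟨i, (h6 i).1 hn, rfl⟩
      · rintro ⟨i, hn, rfl⟩
        exact ⟨i, (h6 i).2 hn, rfl⟩
    subst h8
    subst h5
    rfl

theorem card_pairs' {C : Type} [Finite C] (hC : Nat.card C ≤ 3) {P1 : C → Prop}
    (hP : ∀ c c', P1 c → P1 c' → c = c') {τ : ↥(twistedE6 K 2)} (hτ : τ ∈ T K 2) (h1 : τ ≠ 1) (g : ↥(twistedE6 K 2)) :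
    Nat.card {x : {H : Subgroup ↥(twistedE6 K 2) // (UE K).map (MulAut.conj g).toMonoidHom ≤ H ∧ g * τ * g⁻¹ ∈ H} × C //
      g * τ * g⁻¹ ∈ Op 2 x.1.1 → P1 x.2} ≤ 24 := by
  refine le_trans (Nat.card_le_card_of_injective (fun x =>
    (⟨(⟨x.1.1.1.comap (MulAut.conj g).toMonoidHom, Subgroup.map_le_iff_le_comap.1 x.1.1.2.1,
      Subgroup.mem_comap.2 x.1.1.2.2⟩, x.1.2), fun h => x.2 (Op_comap h)⟩ :
      {x : {H : Subgroup ↥(twistedE6 K 2) // UE K ≤ H ∧ τ ∈ H} × C // τ ∈ Op 2 x.1.1 → P1 x.2})) ?_)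
    (card_pairs F hC hP hτ h1)
  rintro ⟨⟨⟨H, hU, hH⟩, c⟩, hx⟩ ⟨⟨⟨H', hU', hH'⟩, c'⟩, hx'⟩ h
  have h2 := congrArg Subtype.val h
  have h3 : H.comap (MulAut.conj g).toMonoidHom = H'.comap (MulAut.conj g).toMonoidHom :=
    congrArg (fun y => (Prod.fst y).1) h2
  have h4 : c = c' := congrArg Prod.snd h2
  have h5 : H = H' := by
    ext x
    have h2 : g⁻¹ * x * g ∈ H.comap (MulAut.conj g).toMonoidHom ↔
        g⁻¹ * x * g ∈ H'.comap (MulAut.conj g).toMonoidHom := by rw [h3]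
    have e : g * (g⁻¹ * x * g) * g⁻¹ = x := by group
    have h6 : ∀ H : Subgroup ↥(twistedE6 K 2), g⁻¹ * x * g ∈ H.comap (MulAut.conj g).toMonoidHom ↔ x ∈ H := by
      intro H
      rw [Subgroup.mem_comap]
      show g * (g⁻¹ * x * g) * g⁻¹ ∈ H ↔ _
      rw [e]
    rwa [h6, h6] at h2
  subst h5
  subst h4
  rfl

theorem simple_E : IsSimpleGroup ↥(twistedE6 K 2) :=
  (Cfsg.Agent.S1070.result (K := K) (q := 2) Nat.prime_two.isPrimePow (by rw [F.card]; norm_num)).1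

theorem center_E : Subgroup.center ↥(twistedE6 K 2) = ⊥ := by
  have hs := simple_E F
  rcases hs.eq_bot_or_eq_top_of_normal (Subgroup.center ↥(twistedE6 K 2)) inferInstance with h | h
  · exact h
  · exfalso
    refine (Cfsg.Agent.S1070.result (K := K) (q := 2) Nat.prime_two.isPrimePow (by rw [F.card]; norm_num)).2
      ⟨⟨fun a b => ?_⟩⟩
    have h1 : b ∈ Subgroup.center ↥(twistedE6 K 2) := by rw [h]; trivial
    exact Subgroup.mem_center_iff.1 h1 a

theorem lie_E : Cfsg.IsLieTypeChar 2 ↥(twistedE6 K 2) := by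
  have := F.charP
  exact Or.inr (Or.inr (Or.inr (Or.inr (Or.inr (Or.inr (Or.inr (Or.inl
    ⟨K, inferInstance, inferInstance, inferInstance, 2, Nat.prime_two.isPrimePow, Or.inl
      ⟨by rw [F.card]; norm_num, ⟨MulEquiv.refl _⟩⟩⟩)))))))

theorem exists_sylow : ∃ S : Sylow 2 ↥(twistedE6 K 2), (S : Subgroup ↥(twistedE6 K 2)) = UE K := by
  have hp : Fact (Nat.Prime 2) := ⟨Nat.prime_two⟩
  refine ⟨(isPGroup_UE F).toSylow ?_, rfl⟩
  have h1 := Subgroup.index_mul_card (UE K)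
  rw [card_UE F, card_E F] at h1
  intro h2
  obtain ⟨m, hm⟩ := h2
  rw [hm] at h1
  omega

theorem card_ibr {M : Ideal AlgInt} (hM : IsPModular 2 M) {V : ValuationSubring ℂ} (hV : Above M V) :
    Nat.card (IBr V ↥(twistedE6 K 2)) ≤ 24 := by
  have hs := simple_E F
  have hp : Fact (Nat.Prime 2) := ⟨Nat.prime_two⟩
  have := hV.charP hM
  obtain ⟨U', hU'⟩ := Cfsg.Agent.H887.BR.crg_simple.{0, 0, 0} (p := 2) (lie_E F)
  obtain ⟨S, hS⟩ := hU'.isP.exists_le_sylow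
  obtain ⟨S0, hS0⟩ := exists_sylow F
  obtain ⟨g, hg⟩ := MulAction.exists_smul_eq ↥(twistedE6 K 2) S0 S
  have h1 : (S : Subgroup ↥(twistedE6 K 2)) = (UE K).map (MulAut.conj g).toMonoidHom := by
    rw [← hg, ← hS0]
    rfl
  have hT1 : ∃ τ ∈ T K 2, τ ≠ 1 := by
    by_contra h
    push Not at h
    have h2 : T K 2 = ⊥ := (Subgroup.eq_bot_iff_forall _).2 h
    have h3 := card_TE F
    rw [h2, Subgroup.card_bot] at h3
    omega
  obtain ⟨τ, hτ, hτ1⟩ := hT1
  have hτ3 : τ ^ 3 = 1 := by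
    have h2 : orderOf τ = 3 := by
      rw [← Nat.card_zpowers, zpowers_eq F hτ hτ1, card_TE F]
    rw [← h2]
    exact pow_orderOf_eq_one τ
  have hfC : Finite {c : ResidueField V // c ^ 3 = 1} ∧ Nat.card {c : ResidueField V // c ^ 3 = 1} ≤ 3 :=
    roots_le (ResidueField V)
  have hfC' := hfC.1
  refine (ibr_le_tor hU' S.isPGroup' hS (center_E F) (τ := g * τ * g⁻¹) (m := 3) ?_ ?_ ?_).trans ?_
  · rw [conj_pow, hτ3, mul_one, mul_inv_cancel]
  · rw [h1]
    rintro _ ⟨u, hu, rfl⟩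
    refine ⟨τ⁻¹ * u * τ, ?_, ?_⟩
    · have h2 := T_conj F (inv_mem hτ) hu
      rwa [inv_inv] at h2
    · show g * (τ⁻¹ * u * τ) * g⁻¹ = (g * τ * g⁻¹)⁻¹ * (g * u * g⁻¹) * (g * τ * g⁻¹)
      group
  · intro H hH hτH
    rw [h1] at hH
    exact gen_E' F hH hτ hτ1 hτH
  · rw [h1]
    exact card_pairs' F hfC.2 (P1 := fun c : {c : ResidueField V // c ^ 3 = 1} => c.1 = 1)
      (fun c c' h h' => Subtype.ext (h.trans h'.symm)) hτ hτ1 g

/-- **pairwise nonconjugate elements of odd order of `²E₆(2)`: at most 24** -/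
theorem le24 {ι : Type*} [Fintype ι] (f : ι → ↥(twistedE6 K 2)) (ho : ∀ i, Odd (orderOf (f i)))
    (hf : ∀ i j, IsConj (f i) (f j) → i = j) : Fintype.card ι ≤ 24 := by
  obtain ⟨M, hM⟩ := Blocks.ExistsModular.exists_isPModular Nat.prime_two
  obtain ⟨V, hV⟩ := Cfsg.Agent.H657.exists_above hM
  refine (card_le_ibr hM hV f (fun i => ?_) hf).trans (card_ibr F hM hV)
  have h1 := ho i
  show ¬ 2 ∣ orderOf (f i)
  exact fun h => (Nat.not_even_iff_odd.2 h1) (even_iff_two_dvd.2 h)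

/-- **24 pairwise nonconjugate elements of odd order represent all classes of elements of odd order** -/
theorem exists_conj24 (f : Fin 24 → ↥(twistedE6 K 2)) (ho : ∀ i, Odd (orderOf (f i)))
    (hf : ∀ i j, IsConj (f i) (f j) → i = j) {g : ↥(twistedE6 K 2)} (hg : Odd (orderOf g)) : ∃ i, IsConj (f i) g := by
  by_contra hcon
  push Not at hcon
  have h1 := le24 F (ι := Option (Fin 24)) (fun o => o.elim g f) (by
    rintro (_ | i)
    · exact hg
    · exact ho i) (by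
    rintro (_ | i) (_ | j) h
    · rfl
    · exact absurd h.symm (hcon j)
    · exact absurd h (hcon i)
    · rw [hf i j h])
  simp at h1

/-- **`²E₆(2)` has at most 24 classes of elements of odd order** -/
theorem card_le24 : Nat.card {c : ConjClasses ↥(twistedE6 K 2) // ∀ g ∈ c.carrier, Odd (orderOf g)} ≤ 24 := by
  classical
  have := Fintype.ofFinite {c : ConjClasses ↥(twistedE6 K 2) // ∀ g ∈ c.carrier, Odd (orderOf g)}
  rw [Nat.card_eq_fintype_card]
  choose r hr using fun c : ConjClasses ↥(twistedE6 K 2) => ConjClasses.exists_rep c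
  refine le24 F (fun c => r c.1) (fun c => c.2 _ ?_) (fun c d h => ?_)
  · rw [ConjClasses.mem_carrier_iff_mk_eq, hr]
  · apply Subtype.ext
    rw [← hr c.1, ← hr d.1]
    exact ConjClasses.mk_eq_mk_iff_isConj.2 h

end

end Cfsg.Agent.H197.RegTE
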